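import Cfsg.Agent.H826.Groups
import Cfsg.Agent.H824.FiStab

/-!
# An element of order eight in `M / Q` and a bound for elementary abelian subgroups of `M / Q`
-/

set_option autoImplicit false

namespace Cfsg.Agent.H826.Eight

open Cfsg.Agent.SporRec.GF4 Cfsg.Agent.R08 Cfsg.Agent.R08.Iface Cfsg.Agent.R08.InvHerm
open Cfsg.Agent.R08.InvM Cfsg.Agent.R08.InvP Cfsg.Agent.H826.Perp Cfsg.Agent.H826.Pairs
open Cfsg.Agent.R08.ModVec (W)
open Cfsg.Agent.R08.Geo (V6)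

theorem abs {K : Type*} [Group K] [Finite K] {m : ℕ} (hK : Nat.card K = 2 ^ 7 * m) (hm : Odd m)
    (B : Subgroup K) (hB : ∀ x ∈ B, x * x = 1) (h64 : 64 ≤ Nat.card B) (x : K) (hx : x ^ 8 = 1) :
    x ^ 4 = 1 := by
  have : Fact (Nat.Prime 2) := ⟨Nat.prime_two⟩
  have hBp : IsPGroup 2 B := fun y => ⟨1, by
    apply Subtype.ext
    have := hB y y.2
    show (y : K) ^ (2 ^ 1) = 1
    rw [pow_one, pow_two, this]⟩
  obtain ⟨P, hP⟩ := hBp.exists_le_sylow
  have hxp : IsPGroup 2 (Subgroup.zpowers x) := by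
    intro y
    obtain ⟨k, hk⟩ := y.2
    refine ⟨3, Subtype.ext ?_⟩
    show (y : K) ^ (2 ^ 3) = 1
    rw [← hk]
    show (x ^ k) ^ 8 = 1
    rw [← zpow_natCast, ← zpow_mul, mul_comm, zpow_mul, zpow_natCast, hx, one_zpow]
  obtain ⟨P', hP'⟩ := hxp.exists_le_sylow
  obtain ⟨g, hg⟩ := MulAction.exists_smul_eq K P' P
  have hyP : g * x * g⁻¹ ∈ (P : Subgroup K) := by
    rw [← hg]
    exact ⟨x, hP' (Subgroup.mem_zpowers x), rfl⟩
  -- order of `P`
  have hcP : Nat.card (P : Subgroup K) ≤ 128 := by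
    obtain ⟨k, hk⟩ := IsPGroup.iff_card.1 P.isPGroup'
    have h1 : Nat.card (P : Subgroup K) ∣ Nat.card K := Subgroup.card_subgroup_dvd_card _
    have h2 : Nat.card (P : Subgroup K) = 2 ^ k := hk
    rw [h2, hK] at h1
    have h3 : Nat.Coprime (2 ^ k) m := Nat.Coprime.pow_left _ (Nat.coprime_two_left.2 hm)
    have h4 := h3.dvd_of_dvd_mul_right h1
    rw [h2]
    exact Nat.le_of_dvd (by norm_num) h4
  have hidx := Subgroup.card_mul_index (B.subgroupOf (P : Subgroup K))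
  have hcB : Nat.card (B.subgroupOf (P : Subgroup K)) = Nat.card B :=
    Nat.card_congr (Subgroup.subgroupOfEquivOfLe hP).toEquiv
  rw [hcB] at hidx
  have hi2 : (B.subgroupOf (P : Subgroup K)).index ≤ 2 := by
    by_contra hlt
    push Not at hlt
    have : 64 * 3 ≤ Nat.card B * (B.subgroupOf (P : Subgroup K)).index := Nat.mul_le_mul h64 hlt
    omega
  have hi0 : (B.subgroupOf (P : Subgroup K)).index ≠ 0 := Subgroup.index_ne_zero_of_finite
  have hy2 : (g * x * g⁻¹) * (g * x * g⁻¹) ∈ B := by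
    rcases (show (B.subgroupOf (P : Subgroup K)).index = 1 ∨ (B.subgroupOf (P : Subgroup K)).index = 2
      by omega) with h1 | h1
    · have h2 := Subgroup.index_eq_one.1 h1
      have h3 : (⟨g * x * g⁻¹, hyP⟩ : (P : Subgroup K)) ∈ B.subgroupOf (P : Subgroup K) := by
        rw [h2]; trivial
      exact B.mul_mem h3 h3
    · exact Subgroup.mul_self_mem_of_index_two h1 (⟨g * x * g⁻¹, hyP⟩ : (P : Subgroup K))
  have hy4 := hB _ hy2
  have e : g * x ^ 4 * g⁻¹ = (g * x * g⁻¹) * (g * x * g⁻¹) * ((g * x * g⁻¹) * (g * x * g⁻¹)) := by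
    rw [← conj_pow, show (4 : ℕ) = 2 + 2 from rfl, pow_add, pow_two]
  rw [← e, mul_inv_eq_one, mul_eq_left] at hy4
  exact hy4

/-! ### the element -/

/-- transvection on codes -/
def trv (r x : V6) : V6 := x.add (V6.sm (x.h r) r)

theorem trv_w (r x : V6) : (trv r x).w = tr r.w x.w := by
  rw [trv, V6.add_w, V6.sm_w, tr, ← V6.h_eq, ← Geo.H_iface]

def a0 : V6 := ⟨.o, .w, .o, .o, .w, .w⟩
def a1 : V6 := ⟨.z, .z, .z, .z, .o, .o⟩
def a2 : V6 := ⟨.z, .o, .z, .z, .o, .z⟩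
def a3 : V6 := ⟨.z, .z, .o, .o, .z, .z⟩
def a4 : V6 := ⟨.z, .z, .z, .o, .z, .o⟩
def a5 : V6 := ⟨.o, .z, .w, .z, .z, .z⟩

/-- the map of order eight -/
def FF (x : V6) : V6 := trv a0 (trv a1 (trv a2 (trv a3 (trv a4 (trv a5 x)))))

def e0 : V6 := ⟨.o, .z, .z, .z, .z, .z⟩
def e1 : V6 := ⟨.z, .o, .z, .z, .z, .z⟩
def e2 : V6 := ⟨.z, .z, .o, .z, .z, .z⟩
def e3 : V6 := ⟨.z, .z, .z, .o, .z, .z⟩
def e4 : V6 := ⟨.z, .z, .z, .z, .o, .z⟩
def e5 : V6 := ⟨.z, .z, .z, .z, .z, .o⟩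

theorem check : (V6.eq (FF^[8] e0) e0 && V6.eq (FF^[8] e1) e1 && V6.eq (FF^[8] e2) e2 &&
    V6.eq (FF^[8] e3) e3 && V6.eq (FF^[8] e4) e4 && V6.eq (FF^[8] e5) e5) = true := by decide +kernel

theorem check4 : (V6.eq (FF^[4] e0) e0 && V6.eq (FF^[4] e1) e1 && V6.eq (FF^[4] e2) e2 &&
    V6.eq (FF^[4] e3) e3 && V6.eq (FF^[4] e4) e4 && V6.eq (FF^[4] e5) e5) = false := by decide +kernel

theorem checkR : (a0.isR && a1.isR && a2.isR && a3.isR && a4.isR && a5.isR) = true := by decide +kernel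

section Lab

variable {G : Type*} [Group G] {Q M : Subgroup G} {z : G}

theorem ρ_pow (L : Lab F4 Q M z) {m : G} (hm : m ∈ M) (n : ℕ) (w : W) :
    L.ρ (m ^ n) w = (L.ρ m)^[n] w := by
  induction n generalizing w with
  | zero => rw [pow_zero, L.ρ_one]; rfl
  | succ n ih =>
    rw [pow_succ, L.ρ_mul (L.M_comm _ (M.pow_mem hm n)) (L.M_comm m hm), ih]
    rfl

theorem iter (L : Lab F4 Q M z) {m : G} (h : ∀ x : V6, L.ρ m x.w = (FF x).w) (n : ℕ) (x : V6) :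
    (L.ρ m)^[n] x.w = (FF^[n] x).w := by
  induction n generalizing x with
  | zero => rfl
  | succ n ih =>
    show (L.ρ m)^[n] (L.ρ m x.w) = (FF^[n] (FF x)).w
    rw [h, ih]

theorem expand (w : W) : w = w 0 • e0.w + w 1 • e1.w + w 2 • e2.w + w 3 • e3.w + w 4 • e4.w +
    w 5 • e5.w := by
  funext i
  have hm : ∀ a : F4, a * .o = a := by intro a; cases a <;> rfl
  have hz : ∀ a : F4, a * .z = .z := by intro a; cases a <;> rfl
  have ha : ∀ a : F4, a + .z = a := by intro a; cases a <;> rfl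
  have ha' : ∀ a : F4, .z + a = a := by intro a; cases a <;> rfl
  fin_cases i
  all_goals
    simp only [Pi.add_apply, Pi.smul_apply, smul_eq_mul]
    simp only [V6.w, e0, e1, e2, e3, e4, e5]
    simp [hm, hz, ha, ha']

theorem mem_Q_of_basis (L : Lab F4 Q M z) {m : G} (hm : m ∈ M)
    (h : L.ρ m e0.w = e0.w ∧ L.ρ m e1.w = e1.w ∧ L.ρ m e2.w = e2.w ∧ L.ρ m e3.w = e3.w ∧
      L.ρ m e4.w = e4.w ∧ L.ρ m e5.w = e5.w) : m ∈ Q := by
  obtain ⟨h0, h1, h2, h3, h4, h5⟩ := h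
  have hmz := L.M_comm m hm
  apply L.mem_Q m hmz
  intro w
  rw [expand w]
  simp only [L.ρ_add hmz, (L.isLin hm).smul, h0, h1, h2, h3, h4, h5]

/-- an element of `M` of order eight modulo `Q` -/
theorem exists_eight (L : Lab F4 Q M z) : ∃ m ∈ M, m ^ 8 ∈ Q ∧ m ^ 4 ∉ Q := by
  have hR := checkR
  simp only [Bool.and_eq_true] at hR
  obtain ⟨⟨⟨⟨⟨R0, R1⟩, R2⟩, R3⟩, R4⟩, R5⟩ := hR
  have toR : ∀ x : V6, x.isR = true → IsR x.w := fun x h => by
    rw [Geo.isR_iff, V6.of_w]; exact h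
  obtain ⟨m1, hm1, h1⟩ := L.tau a0.w a1.w (toR _ R0) (toR _ R1)
  obtain ⟨m2, hm2, h2⟩ := L.tau a2.w a3.w (toR _ R2) (toR _ R3)
  obtain ⟨m3, hm3, h3⟩ := L.tau a4.w a5.w (toR _ R4) (toR _ R5)
  have hm : m1 * (m2 * m3) ∈ M := M.mul_mem hm1 (M.mul_mem hm2 hm3)
  have hρ : ∀ x : V6, L.ρ (m1 * (m2 * m3)) x.w = (FF x).w := by
    intro x
    rw [L.ρ_mul (L.M_comm m1 hm1) (L.M_comm _ (M.mul_mem hm2 hm3)),
      L.ρ_mul (L.M_comm m2 hm2) (L.M_comm m3 hm3), h3, h2, h1]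
    simp only [← trv_w]
    rfl
  refine ⟨m1 * (m2 * m3), hm, ?_, ?_⟩
  · apply mem_Q_of_basis L (M.pow_mem hm 8)
    have hc := check
    simp only [Bool.and_eq_true] at hc
    obtain ⟨⟨⟨⟨⟨c0, c1⟩, c2⟩, c3⟩, c4⟩, c5⟩ := hc
    have key : ∀ e : V6, V6.eq (FF^[8] e) e = true → L.ρ ((m1 * (m2 * m3)) ^ 8) e.w = e.w := by
      intro e he
      rw [ρ_pow L hm, iter L hρ, V6.eq_iff.1 he]
    exact ⟨key _ c0, key _ c1, key _ c2, key _ c3, key _ c4, key _ c5⟩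
  · intro hQ
    have key : ∀ e : V6, V6.eq (FF^[4] e) e = true := by
      intro e
      rw [V6.eq_iff]
      have h4 := L.ρ_mem_Q hQ e.w
      rw [ρ_pow L hm, iter L hρ] at h4
      have h5 := congrArg V6.of h4
      rwa [V6.of_w, V6.of_w] at h5
    have hc := check4
    rw [key, key, key, key, key, key] at hc
    exact absurd hc (by decide)

theorem quot_normal (L : Lab F4 Q M z) : (Q.subgroupOf M).Normal :=
  ⟨fun x hx g => by
    rw [Subgroup.mem_subgroupOf] at hx ⊢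
    exact L.large.conj_mem g (L.M_comm g g.2) x hx⟩

/-- an elementary abelian subgroup of `M` has image of order less than `2 ^ 6` in `M / Q` -/
theorem card_lt (L : Lab F4 Q M z) [Finite G] {B : Subgroup G} (hBM : B ≤ M)
    (hB : ∀ x ∈ B, x * x = 1) : Nat.card B < 64 * Nat.card ↥(B ⊓ Q) := by
  have hn := quot_normal L
  by_contra hlt
  push Not at hlt
  set N : Subgroup M := Q.subgroupOf M with hN
  have hcM : Nat.card M = Nat.card (M ⧸ N) * Nat.card N :=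
    Subgroup.card_eq_card_quotient_mul_card_subgroup N
  have hcN : Nat.card N = Nat.card Q := Nat.card_congr (Subgroup.subgroupOfEquivOfLe L.Q_le).toEquiv
  have hQpos : 0 < Nat.card Q := Nat.card_pos
  have hK : Nat.card (M ⧸ N) = 2 ^ 7 * 76545 := by
    rw [hcN, L.cardM] at hcM
    have := Nat.eq_of_mul_eq_mul_right hQpos hcM
    omega
  let B' : Subgroup (M ⧸ N) := (B.subgroupOf M).map (QuotientGroup.mk' N)
  have hB' : ∀ x ∈ B', x * x = 1 := by
    rintro _ ⟨b, hb, rfl⟩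
    rw [← map_mul]
    have : b * b = 1 := Subtype.ext (hB b hb)
    rw [this, map_one]
  have hc := H824.FiStab.card_map_mk N (B.subgroupOf M)
  have h1 : Nat.card (B.subgroupOf M) = Nat.card B :=
    Nat.card_congr (Subgroup.subgroupOfEquivOfLe hBM).toEquiv
  have h2 : Nat.card ↥(N ⊓ B.subgroupOf M) = Nat.card ↥(B ⊓ Q) := by
    have h3 : N ⊓ B.subgroupOf M = (B ⊓ Q).subgroupOf M := by
      ext x
      simp only [hN, Subgroup.mem_inf, Subgroup.mem_subgroupOf]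
      tauto
    rw [h3]
    exact Nat.card_congr (Subgroup.subgroupOfEquivOfLe (inf_le_left.trans hBM)).toEquiv
  rw [h1, h2] at hc
  have hpos : 0 < Nat.card ↥(B ⊓ Q) := Nat.card_pos
  have h64 : 64 ≤ Nat.card B' := by
    rw [← hc] at hlt
    exact Nat.le_of_mul_le_mul_right hlt hpos
  obtain ⟨m, hm, h8, h4⟩ := exists_eight L
  have h5 := abs hK (by decide) B' hB' h64 (QuotientGroup.mk' N ⟨m, hm⟩) (by
    rw [← map_pow]
    exact (QuotientGroup.eq_one_iff _).2 h8)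
  rw [← map_pow] at h5
  have h6 : (⟨m, hm⟩ ^ 4 : M) ∈ N := (QuotientGroup.eq_one_iff _).1 h5
  exact h4 h6

end Lab

end Cfsg.Agent.H826.Eight
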