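import Cfsg.Agent.H826.Struct

/-!
# An elementary abelian subgroup of order `2 ^ 11` of `C_G(z)`
-/

set_option autoImplicit false

namespace Cfsg.Agent.H826.Exist

open Cfsg.Agent.SporRec.GF4 Cfsg.Agent.R08 Cfsg.Agent.R08.Iface Cfsg.Agent.R08.InvHerm
open Cfsg.Agent.R08.InvM Cfsg.Agent.R08.InvP Cfsg.Agent.H826.Perp Cfsg.Agent.H826.Pairs
open Cfsg.Agent.H826.Groups Cfsg.Agent.H826.Struct Cfsg.Agent.H826.Eight
open Cfsg.Agent.R08.ModVec (W)
open Cfsg.Agent.R08.Geo (V6)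
open Cfsg.Agent.R08.TwoSys Cfsg.Agent.R08.Iface.Lab

/-! ### the hexad -/

def h0 : V6 := ⟨.o, .o, .z, .z, .z, .z⟩
def h1 : V6 := ⟨.z, .z, .o, .o, .z, .z⟩
def h2 : V6 := ⟨.z, .z, .z, .z, .o, .o⟩
def h3 : V6 := ⟨.o, .o, .o, .o, .o, .o⟩
def h4 : V6 := ⟨.o, .o, .w, .w, .v, .v⟩
def h5 : V6 := ⟨.o, .o, .v, .v, .w, .w⟩

/-- test vector -/
def pt : V6 := ⟨.o, .z, .o, .z, .v, .z⟩

/-- the pairs -/
def prs : List (V6 × V6) :=
  [(h0, h1), (h0, h2), (h0, h3), (h0, h4), (h0, h5), (h1, h2), (h1, h3), (h1, h4), (h1, h5)]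

/-- `T2` on codes -/
def TT (p : V6 × V6) (x : V6) : V6 := trv p.1 (trv p.2 x)

/-- a pair of independent orthogonal `R`-vectors -/
def good (p : V6 × V6) : Bool := p.1.isR && p.2.isR && V6.isZ (p.1.h p.2) && !(Geo.mult p.1 p.2)

/-- membership in the span of `h0, h1, h2` -/
def inN (x : V6) : Bool := V6.eq x ⟨x.a, x.a, x.c, x.c, x.e, x.e⟩

theorem check_good : (prs.all fun p => good p && inN p.1 && inN p.2) = true := by decide +kernel

/-- the images of the test vector -/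
def imgs : List V6 := pt :: prs.map fun p => TT p pt

/-- pairwise different -/
def distinct : List V6 → Bool
  | [] => true
  | a :: l => (l.all fun b => !(V6.eq a b)) && distinct l

theorem check_distinct : distinct imgs = true := by decide +kernel

theorem nodup_of_distinct : ∀ {l : List V6}, distinct l = true → l.Nodup
  | [], _ => List.nodup_nil
  | a :: l, h => by
    rw [distinct, Bool.and_eq_true, List.all_eq_true] at h
    rw [List.nodup_cons]
    refine ⟨fun hm => ?_, nodup_of_distinct h.2⟩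
    have h1 := h.1 a hm
    rw [Bool.not_eq_true', ← Bool.not_eq_true, V6.eq_iff] at h1
    exact h1 rfl

theorem pair_of_good {p : V6 × V6} (h : good p = true) : RPair p.1.w p.2.w := by
  rw [good, Bool.and_eq_true, Bool.and_eq_true, Bool.and_eq_true, Bool.not_eq_true'] at h
  obtain ⟨⟨⟨h1, h2⟩, h3⟩, h4⟩ := h
  refine ⟨?_, ?_, ?_, ?_⟩
  · rw [Geo.isR_iff, V6.of_w]; exact h1
  · rw [Geo.isR_iff, V6.of_w]; exact h2
  · rw [Geo.H_of, V6.of_w, V6.of_w]; exact V6.isZ_iff.1 h3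
  · exact Geo.mult_false.1 h4

theorem T2_TT {p : V6 × V6} (h : good p = true) (x : V6) : T2 p.1.w p.2.w x.w = (TT p x).w := by
  have hp := pair_of_good h
  rw [TT, trv_w, trv_w, tr, tr, T2, H_add_left hF, H_smul_left hF, H_zero_swap hF hp.perp, mul_zero,
      add_zero, add_right_comm]

/-- the nice subspace -/
def N0 : AddSubgroup W := sp3 h0.w h1.w h2.w

theorem checkR : (good (h0, h1) && h2.isR && V6.isZ (h0.h h2) && V6.isZ (h1.h h2)) = true := by
  decide +kernel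

theorem mem_N0 {x : W} : x ∈ N0 ↔ x 1 = x 0 ∧ x 3 = x 2 ∧ x 5 = x 4 := by
  constructor
  · rintro ⟨c, d, e, rfl⟩
    exact ⟨rfl, rfl, rfl⟩
  · rintro ⟨e1, e2, e3⟩
    refine ⟨x 0, x 2, x 4, ?_⟩
    have ho : ∀ a : F4, a * .o = a := by intro a; cases a <;> rfl
    have hz : ∀ a : F4, a * .z = .z := by intro a; cases a <;> rfl
    have ha : ∀ a : F4, a + .z = a := by intro a; cases a <;> rfl
    have ha' : ∀ a : F4, .z + a = a := by intro a; cases a <;> rfl
    funext i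
    fin_cases i
    all_goals
      simp only [Pi.add_apply, Pi.smul_apply, smul_eq_mul]
      simp only [V6.w, h0, h1, h2]
      simp [ho, hz, ha, ha', e1, e2, e3]

theorem h2_not_mem : h2.w ∉ sp2 h0.w h1.w := by
  rintro ⟨c, d, h⟩
  have h4 := congrFun h 4
  have hz : ∀ a b : F4, a * .z + b * .z ≠ .o := by decide
  exact hz c d h4.symm

theorem nice_N0 : Nice N0 := by
  have h := checkR
  simp only [Bool.and_eq_true] at h
  obtain ⟨⟨⟨hg, hr⟩, h02⟩, h12⟩ := h
  refine nice_sp3 (pair_of_good hg) ?_ ?_ ?_ h2_not_mem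
  · rw [Geo.isR_iff, V6.of_w]; exact hr
  · rw [Geo.H_of, V6.of_w, V6.of_w]; exact V6.isZ_iff.1 h02
  · rw [Geo.H_of, V6.of_w, V6.of_w]; exact V6.isZ_iff.1 h12

theorem mem_of_inN {x : V6} (h : inN x = true) : x.w ∈ N0 := by
  rw [inN, V6.eq_iff] at h
  rw [mem_N0]
  have h1 := congrArg V6.b h
  have h2 := congrArg V6.d h
  have h3 := congrArg V6.f h
  exact ⟨h1, h2, h3⟩

/-! ### the group -/

variable {G : Type*} [Group G] {Q M : Subgroup G} {z : G}

/-- the centraliser in `M` of the preimage of `N` -/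
def AA (L : Lab F4 Q M z) (N : AddSubgroup W) : Subgroup G where
  carrier := {m | m ∈ M ∧ ∀ x ∈ Q, L.v x ∈ N → m * x = x * m}
  one_mem' := ⟨M.one_mem, fun x _ _ => by rw [one_mul, mul_one]⟩
  mul_mem' := by
    rintro a b ⟨ha, ha'⟩ ⟨hb, hb'⟩
    refine ⟨M.mul_mem ha hb, fun x hx hv => ?_⟩
    rw [mul_assoc, hb' x hx hv, ← mul_assoc, ha' x hx hv, mul_assoc]
  inv_mem' := by
    rintro a ⟨ha, ha'⟩
    refine ⟨M.inv_mem ha, fun x hx hv => ?_⟩
    rw [inv_mul_eq_iff_eq_mul, ← mul_assoc, ha' x hx hv, mul_assoc, mul_inv_cancel, mul_one]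

theorem mem_AA {L : Lab F4 Q M z} {N : AddSubgroup W} {m : G} :
    m ∈ AA L N ↔ m ∈ M ∧ ∀ x ∈ Q, L.v x ∈ N → m * x = x * m := Iff.rfl

/-- elements of `Q` -/
theorem mem_AA_Q (L : Lab F4 Q M z) {N : AddSubgroup W} (hN : Nice N) {x : G} (hx : x ∈ Q) :
    x ∈ AA L N ↔ L.v x ∈ N := by
  rw [mem_AA]
  constructor
  · rintro ⟨-, h⟩
    rw [← hN.perp]
    intro u hu
    obtain ⟨y, hy, rfl⟩ := L.v_surj u
    exact (L.comm_iff x hx y hy).1 (h y hy hu)
  · intro h
    refine ⟨L.Q_le hx, fun y hy hv => ?_⟩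
    rw [L.comm_iff x hx y hy]
    left
    exact hN.H_zero h hv

variable [Finite G] (L : Lab F4 Q M z)
  (hnwc : ∃ g : G, g * z * g⁻¹ ∈ Q ∧ g * z * g⁻¹ ≠ z)
  (even : ∀ f : M →* ℤˣ, (∀ m : M, (m : G) ∈ Q → f m = 1) → ∀ m, f m = 1)

include hnwc even

/-- a good involution over every pair -/
theorem exists_good_inv {r1 r2 : W} (p : RPair r1 r2) :
    ∃ x ∈ M, x * x = 1 ∧ Over L x r1 r2 ∧ Good L x r1 r2 := by
  have hz : z ∈ (sysOf L hnwc even).Z := L.twoB_self
  obtain ⟨s, -, -, -, -, x, -, hxM, hx2, hov, hgood⟩ :=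
    K1 (sysOf L hnwc even) Geo.geo hz p (one_ne_zero (α := F4))
  set g := gg L z with hg
  have hM : x ∈ cj g M := hxM
  refine ⟨g⁻¹ * x * g, mem_cj.1 hM, ?_, ?_, ?_⟩
  · calc g⁻¹ * x * g * (g⁻¹ * x * g) = g⁻¹ * (x * x) * g := by group
      _ = 1 := by rw [hx2]; group
  · exact hov
  · intro y hy hy1 hy2
    have hy' : g * y * g⁻¹ ∈ cj g Q := conj_mem_cj.2 hy
    have e : g⁻¹ * (g * y * g⁻¹) * g = y := by group
    have h := hgood (g * y * g⁻¹) hy' (by
      show H (L.v (g⁻¹ * (g * y * g⁻¹) * g)) r1 = 0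
      rw [e]; exact hy1) (by
      show H (L.v (g⁻¹ * (g * y * g⁻¹) * g)) r2 = 0
      rw [e]; exact hy2)
    calc g⁻¹ * x * g * y = g⁻¹ * (x * (g * y * g⁻¹)) * g := by group
      _ = g⁻¹ * ((g * y * g⁻¹) * x) * g := by rw [h]
      _ = y * (g⁻¹ * x * g) := by group

/-- a good involution over a pair in `N` lies in `AA` -/
theorem exists_mem_AA {N : AddSubgroup W} (hN : Nice N) {r1 r2 : W} (p : RPair r1 r2) (h1 : r1 ∈ N)
    (h2 : r2 ∈ N) : ∃ x ∈ AA L N, x * x = 1 ∧ Over L x r1 r2 := by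
  obtain ⟨x, hx, hx2, hov, hg⟩ := exists_good_inv L hnwc even p
  exact ⟨x, ⟨hx, fun y hy hv => hg y hy (hN.H_zero hv h1) (hN.H_zero hv h2)⟩, hx2, hov⟩

theorem AA_sq {N : AddSubgroup W} (hN : Nice N) {m : G} (hm : m ∈ AA L N) : m * m = 1 := by
  have hmM := hm.1
  have hmz := L.M_comm m hmM
  have hfix : ∀ n ∈ N, L.ρ m n = n := by
    intro n hn
    obtain ⟨x, hx, rfl⟩ := L.v_surj n
    rw [← L.v_conj m hmz x hx, hm.2 x hx hn, mul_inv_cancel_right]
  by_cases hmQ : m ∈ Q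
  · rw [L.sq_iff m hmQ]
    have h1 := (mem_AA_Q L hN hmQ).1 hm
    exact hN.H_zero h1 h1
  have hlin := L.isLin hmM
  have hdiff : ∀ w, L.ρ m w + w ∈ N := by
    intro w
    apply hN.mem_of
    intro n hn
    have e1 : H (L.ρ m w) n = H w n := by
      have e2 := hlin.form w n
      rwa [hfix n hn] at e2
    rw [H_add_left hF, e1, InvHerm.add_self hF]
  have hsq : m * m ∈ Q := by
    apply L.mem_Q _ (Lab.mul_comm' hmz hmz)
    intro w
    rw [L.ρ_mul hmz hmz]
    have e : L.ρ m w = w + (L.ρ m w + w) := by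
      rw [add_comm (L.ρ m w), ← add_assoc, vadd_self hF, zero_add]
    calc L.ρ m (L.ρ m w) = L.ρ m (w + (L.ρ m w + w)) := by rw [← e]
      _ = L.ρ m w + (L.ρ m w + w) := by rw [L.ρ_add hmz, hfix _ (hdiff w)]
      _ = w := by rw [← add_assoc, vadd_self hF, zero_add]
  obtain ⟨r1, r2, p, hov⟩ := exists_over Geo.geo L even hmM hmQ hsq
  have hperp : ∀ n ∈ N, H n r1 = 0 ∧ H n r2 = 0 := by
    intro n hn
    rw [← mem_pp_sp2, ← T2_fix p]
    have h1 := hov n
    rw [hfix n hn] at h1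
    exact h1.symm
  have hr1 : r1 ∈ N := hN.mem_of fun n hn => H_zero_swap hF (hperp n hn).1
  have hr2 : r2 ∈ N := hN.mem_of fun n hn => H_zero_swap hF (hperp n hn).2
  obtain ⟨x, hx, hx2, hovx⟩ := exists_mem_AA L hnwc even hN p hr1 hr2
  have hxz := L.M_comm x hx.1
  have hy : x⁻¹ * m ∈ Q := by
    apply L.mem_Q _ (Lab.mul_comm' (Lab.inv_comm hxz) hmz)
    intro w
    rw [L.ρ_mul (Lab.inv_comm hxz) hmz, hov w, ← hovx w, L.ρ_inv hxz]
  have hyA : x⁻¹ * m ∈ AA L N := (AA L N).mul_mem ((AA L N).inv_mem hx) hm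
  have hvy := (mem_AA_Q L hN hy).1 hyA
  have hy2 : (x⁻¹ * m) * (x⁻¹ * m) = 1 := by
    rw [L.sq_iff _ hy]
    exact hN.H_zero hvy hvy
  have hxy := hx.2 _ hy hvy
  have e : m = x * (x⁻¹ * m) := by group
  have key : ∀ y : G, x * y = y * x → y * y = 1 → (x * y) * (x * y) = 1 := by
    intro y h1 h2
    calc (x * y) * (x * y) = (x * y) * (y * x) := by rw [h1]
      _ = x * (y * y) * x := by group
      _ = 1 := by rw [h2, mul_one, hx2]
  rw [e]
  exact key _ hxy hy2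

omit [Finite G] hnwc even in
theorem z_mem_AA (N : AddSubgroup W) : z ∈ AA L N :=
  ⟨L.Q_le L.large.z_mem, fun x hx _ => (L.large.comm_z x hx).symm⟩

theorem maxi_AA : Maxi z (AA L N0) := by
  have hc : ∀ x ∈ AA L N0, x * z = z * x := fun x hx => L.M_comm x hx.1
  have hs : ∀ x ∈ AA L N0, x * x = 1 := fun x hx => AA_sq L hnwc even nice_N0 hx
  refine ⟨hc, hs, ?_⟩
  have hzA : z ∈ AA L N0 := z_mem_AA L N0
  have c1 := card_range L (AA L N0) hc
  have c2 := card_lab L hzA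
  have hlab : lab L (AA L N0) = N0 := by
    ext w
    obtain ⟨x, hx, rfl⟩ := L.v_surj w
    rw [mem_lab_iff L hzA hx, mem_AA_Q L nice_N0 hx]
  rw [hlab, nice_N0.card] at c2
  rw [c2] at c1
  -- the order of the range
  have hr : 10 ≤ Nat.card (Φ L (AA L N0) hc).range := by
    have hmem : ∀ y ∈ imgs, ∃ e : (Φ L (AA L N0) hc).range, (e : Equiv.Perm W) pt.w = y.w := by
      intro y hy
      rw [imgs, List.mem_cons, List.mem_map] at hy
      rcases hy with rfl | ⟨p, hp, rfl⟩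
      · exact ⟨1, rfl⟩
      · have hg := List.all_eq_true.1 check_good p hp
        rw [Bool.and_eq_true, Bool.and_eq_true] at hg
        obtain ⟨⟨hg, hn1⟩, hn2⟩ := hg
        obtain ⟨x, hx, -, hov⟩ := exists_mem_AA L hnwc even nice_N0 (pair_of_good hg)
          (mem_of_inN hn1) (mem_of_inN hn2)
        refine ⟨⟨Φ L (AA L N0) hc ⟨x, hx⟩, ⟨x, hx⟩, rfl⟩, ?_⟩
        rw [← T2_TT hg]
        exact hov pt.w
    choose f hf using hmem
    have hnd := nodup_of_distinct check_distinct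
    let g : {y // y ∈ imgs} → (Φ L (AA L N0) hc).range := fun y => f y.1 y.2
    have hginj : Function.Injective g := by
      rintro ⟨y, hy⟩ ⟨y', hy'⟩ h
      apply Subtype.ext
      have h1 := hf y hy
      have h2 := hf y' hy'
      have h3 : f y hy = f y' hy' := h
      rw [h3, h2] at h1
      have h4 := congrArg V6.of h1
      rw [V6.of_w, V6.of_w] at h4
      exact h4.symm
    have h1 := Nat.card_le_card_of_injective g hginj
    have h2 : Nat.card {y // y ∈ imgs} = 10 := by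
      classical
      rw [Nat.card_eq_fintype_card, Fintype.card_of_subtype (s := imgs.toFinset) (by simp),
        List.toFinset_card_of_nodup hnd]
      rfl
    rwa [h2] at h1
  obtain ⟨n, hn⟩ := card_eq_pow hs
  have h11 : 10 < n := by
    by_contra hlt
    push Not at hlt
    have h3 := Nat.pow_le_pow_right (show 0 < 2 by norm_num) hlt
    omega
  rw [hn]
  exact Nat.pow_le_pow_right (by norm_num) h11

end Cfsg.Agent.H826.Exist
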