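import Cfsg.Agent.R08.InvBase
import Cfsg.Agent.LargeExtra.Perp

/-!
# `F4 ^ 6` with its hermitian form: additive subgroups and their orthogonals over the prime field

`pp U` is the orthogonal of an additive subgroup with respect to the prime-field form whose value is `0` iff
`H u w ∈ {0, 1}`.  `card_pp`, `pp_pp`, spans `sp2`, `sp3` of two or three vectors.
-/

set_option autoImplicit false

namespace Cfsg.Agent.H826.Perp

open Cfsg.Agent.SporRec.GF4 Cfsg.Agent.R08 Cfsg.Agent.R08.Iface Cfsg.Agent.R08.InvHerm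
open Cfsg.Agent.R08.InvM
open Cfsg.Agent.R08.ModVec (W)

theorem hF : Nat.card F4 = 4 := by rw [Nat.card_eq_fintype_card, F4.card_F4]

theorem card_W : Nat.card W = 4096 := by
  rw [Nat.card_fun, hF, Nat.card_eq_fintype_card, Fintype.card_fin]; norm_num

/-- `0` on `{0, 1}` and `1` elsewhere -/
def κ : F4 → ZMod 2
  | .z => 0
  | .o => 0
  | .w => 1
  | .v => 1

theorem κ_add (a b : F4) : κ (a + b) = κ a + κ b := by
  cases a <;> cases b <;> decide

theorem κ_eq_zero {a : F4} : κ a = 0 ↔ a = 0 ∨ a = 1 := by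
  cases a <;> decide

theorem κ_sq (a : F4) : κ (a ^ 2) = κ a := by
  cases a <;> decide

noncomputable local instance modW : Module (ZMod 2) W :=
  AddCommGroup.zmodModule (n := 2) (by intro x; rw [two_nsmul]; exact vadd_self hF x)

theorem smul_cases (c : ZMod 2) : c = 0 ∨ c = 1 := by revert c; decide

/-- the form over the prime field -/
noncomputable def b : LinearMap.BilinForm (ZMod 2) W :=
  LinearMap.mk₂ (ZMod 2) (fun u w => κ (H u w))
    (fun u u' w => by rw [H_add_left hF, κ_add])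
    (fun c u w => by
      rcases smul_cases c with rfl | rfl
      · rw [zero_smul, zero_smul, H_zero_left hF]; rfl
      · rw [one_smul, one_smul])
    (fun u w w' => by rw [H_add_right hF, κ_add])
    (fun c u w => by
      rcases smul_cases c with rfl | rfl
      · rw [zero_smul, zero_smul, H_zero_right hF]; rfl
      · rw [one_smul, one_smul])

theorem b_apply (u w : W) : b u w = κ (H u w) := rfl

theorem b_comm (u w : W) : b u w = b w u := by
  rw [b_apply, b_apply, H_swap hF w u, κ_sq]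

theorem b_refl : b.IsRefl := fun u w h => by rw [b_comm]; exact h

theorem b_nondeg : b.Nondegenerate := by
  have key : ∀ u : W, (∀ w, b u w = 0) → u = 0 := by
    intro u hu
    apply H_nondeg hF
    intro v
    apply zero_of_scalars' hF
    intro c
    rw [← H_smul_right hF]
    exact κ_eq_zero.1 (hu (c • v))
  exact ⟨key, fun u hu => key u fun w => by rw [b_comm]; exact hu w⟩

/-- values `0`, `1` are preserved by exchanging the arguments -/
theorem f2_swap {u w : W} (h : H u w = 0 ∨ H u w = 1) : H w u = 0 ∨ H w u = 1 :=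
  h.imp (H_zero_swap hF) (H_one_swap hF)

/-- the orthogonal over the prime field -/
def pp (U : AddSubgroup W) : AddSubgroup W where
  carrier := {w | ∀ u ∈ U, H w u = 0 ∨ H w u = 1}
  zero_mem' := fun u _ => Or.inl (H_zero_left hF u)
  add_mem' := by
    intro w w' h h' u hu
    rw [H_add_left hF]
    exact f2_add hF (h u hu) (h' u hu)
  neg_mem' := by
    intro w h
    rw [vneg hF]; exact h

theorem mem_pp {U : AddSubgroup W} {w : W} : w ∈ pp U ↔ ∀ u ∈ U, H w u = 0 ∨ H w u = 1 := Iff.rfl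

theorem pp_anti {U U' : AddSubgroup W} (h : U ≤ U') : pp U' ≤ pp U := fun _ hw u hu => hw u (h hu)

theorem orthogonal_eq (U : AddSubgroup W) :
    b.orthogonal (AddSubgroup.toZModSubmodule 2 U) = AddSubgroup.toZModSubmodule 2 (pp U) := by
  ext w
  rw [LinearMap.BilinForm.mem_orthogonal_iff]
  constructor
  · intro h u hu
    have h1 := h u hu
    exact f2_swap (κ_eq_zero.1 h1)
  · intro h u hu
    exact κ_eq_zero.2 (f2_swap (h u hu))

theorem card_pp (U : AddSubgroup W) : Nat.card U * Nat.card (pp U) = 4096 := by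
  have h := LargeExtra.Perp.card_orthogonal b_nondeg b_refl (AddSubgroup.toZModSubmodule 2 U)
  rw [orthogonal_eq, card_W] at h
  exact h

theorem pp_pp (U : AddSubgroup W) : pp (pp U) = U := by
  have h := LargeExtra.Perp.orthogonal_orthogonal b_nondeg b_refl (AddSubgroup.toZModSubmodule 2 U)
  rw [orthogonal_eq, orthogonal_eq] at h
  exact (AddSubgroup.toZModSubmodule 2).injective h

/-! ### spans -/

/-- `⟨r1, r2⟩` -/
def sp2 (r1 r2 : W) : AddSubgroup W where
  carrier := {w | ∃ c d : F4, w = c • r1 + d • r2}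
  zero_mem' := ⟨0, 0, by rw [zero_smul, zero_smul, add_zero]⟩
  add_mem' := by
    rintro _ _ ⟨c, d, rfl⟩ ⟨c', d', rfl⟩
    exact ⟨c + c', d + d', by rw [add_smul, add_smul]; abel⟩
  neg_mem' := by
    intro w h
    rw [vneg hF]; exact h

/-- `⟨r1, r2, r3⟩` -/
def sp3 (r1 r2 r3 : W) : AddSubgroup W where
  carrier := {w | ∃ c d e : F4, w = c • r1 + d • r2 + e • r3}
  zero_mem' := ⟨0, 0, 0, by rw [zero_smul, zero_smul, zero_smul, add_zero, add_zero]⟩
  add_mem' := by
    rintro _ _ ⟨c, d, e, rfl⟩ ⟨c', d', e', rfl⟩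
    exact ⟨c + c', d + d', e + e', by rw [add_smul, add_smul, add_smul]; abel⟩
  neg_mem' := by
    intro w h
    rw [vneg hF]; exact h

theorem mem_sp2 {r1 r2 w : W} : w ∈ sp2 r1 r2 ↔ ∃ c d : F4, w = c • r1 + d • r2 := Iff.rfl

theorem mem_sp3 {r1 r2 r3 w : W} : w ∈ sp3 r1 r2 r3 ↔ ∃ c d e : F4, w = c • r1 + d • r2 + e • r3 :=
  Iff.rfl

theorem left_mem {r1 r2 : W} : r1 ∈ sp2 r1 r2 := ⟨1, 0, by rw [one_smul, zero_smul, add_zero]⟩

theorem right_mem {r1 r2 : W} : r2 ∈ sp2 r1 r2 := ⟨0, 1, by rw [one_smul, zero_smul, zero_add]⟩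

theorem fst_mem {r1 r2 r3 : W} : r1 ∈ sp3 r1 r2 r3 :=
  ⟨1, 0, 0, by rw [one_smul, zero_smul, zero_smul, add_zero, add_zero]⟩

theorem snd_mem {r1 r2 r3 : W} : r2 ∈ sp3 r1 r2 r3 :=
  ⟨0, 1, 0, by rw [one_smul, zero_smul, zero_smul, add_zero, zero_add]⟩

theorem thd_mem {r1 r2 r3 : W} : r3 ∈ sp3 r1 r2 r3 :=
  ⟨0, 0, 1, by rw [one_smul, zero_smul, zero_smul, add_zero, zero_add]⟩

theorem card_sp2 {r1 r2 : W} (h0 : r1 ≠ 0) (h : ∀ c : F4, r2 ≠ c • r1) : Nat.card (sp2 r1 r2) = 16 := by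
  have h1 : Nat.card (F4 × F4) = 16 := by rw [Nat.card_prod, hF]
  rw [← h1]
  symm
  refine Nat.card_congr (Equiv.ofBijective
    (fun p : F4 × F4 => (⟨p.1 • r1 + p.2 • r2, p.1, p.2, rfl⟩ : sp2 r1 r2)) ⟨?_, ?_⟩)
  · rintro ⟨c, d⟩ ⟨c', d'⟩ he
    have he' : c • r1 + d • r2 = c' • r1 + d' • r2 := congrArg Subtype.val he
    have h2 : (d + d') • r2 = (c + c') • r1 := by
      have h3 := congrArg (fun t : W => t + (d' • r2 + c • r1)) he'
      beta_reduce at h3
      rw [add_smul, add_smul]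
      have e1 : c • r1 + d • r2 + (d' • r2 + c • r1) = (c • r1 + c • r1) + (d • r2 + d' • r2) := by abel
      have e2 : c' • r1 + d' • r2 + (d' • r2 + c • r1) = (d' • r2 + d' • r2) + (c • r1 + c' • r1) := by
        abel
      rw [e1, e2, vadd_self hF, vadd_self hF, zero_add, zero_add] at h3
      exact h3
    have hd : d + d' = 0 := by
      by_contra hne
      apply h ((d + d')⁻¹ * (c + c'))
      rw [← smul_smul, ← h2, smul_smul, inv_mul_cancel₀ hne, one_smul]
    rw [hd, zero_smul] at h2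
    have hc : c + c' = 0 := (smul_eq_zero.1 h2.symm).resolve_right h0
    have e3 : ∀ a b : F4, a + b = 0 → a = b := by decide
    rw [e3 _ _ hd, e3 _ _ hc]
  · rintro ⟨w, c, d, rfl⟩
    exact ⟨(c, d), rfl⟩

theorem card_sp3 {r1 r2 r3 : W} (h0 : r1 ≠ 0) (h : ∀ c : F4, r2 ≠ c • r1) (h3 : r3 ∉ sp2 r1 r2) :
    Nat.card (sp3 r1 r2 r3) = 64 := by
  have h1 : Nat.card (sp2 r1 r2 × F4) = 64 := by rw [Nat.card_prod, hF, card_sp2 h0 h]
  rw [← h1]
  symm
  refine Nat.card_congr (Equiv.ofBijective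
    (fun p : sp2 r1 r2 × F4 => (⟨p.1 + p.2 • r3, ?_⟩ : sp3 r1 r2 r3)) ⟨?_, ?_⟩)
  · obtain ⟨c, d, hcd⟩ := p.1.2
    exact ⟨c, d, p.2, by rw [hcd]⟩
  · rintro ⟨x, e⟩ ⟨x', e'⟩ he
    have he' : (x : W) + e • r3 = x' + e' • r3 := congrArg Subtype.val he
    have h2 : (e + e') • r3 = (x : W) + x' := by
      have h4 := congrArg (fun t : W => t + (x + e' • r3)) he'
      beta_reduce at h4
      rw [add_smul]
      have e1 : (x : W) + e • r3 + (x + e' • r3) = ((x : W) + x) + (e • r3 + e' • r3) := by abel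
      have e2 : (x' : W) + e' • r3 + (x + e' • r3) = (e' • r3 + e' • r3) + ((x : W) + x') := by abel
      rw [e1, e2, vadd_self hF, vadd_self hF, zero_add, zero_add] at h4
      exact h4
    have hd : e + e' = 0 := by
      by_contra hne
      apply h3
      obtain ⟨c, d, hcd⟩ := (sp2 r1 r2).add_mem x.2 x'.2
      refine ⟨(e + e')⁻¹ * c, (e + e')⁻¹ * d, ?_⟩
      rw [← smul_smul, ← smul_smul, ← smul_add, ← hcd, ← h2, smul_smul, inv_mul_cancel₀ hne, one_smul]
    rw [hd, zero_smul] at h2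
    have e3 : ∀ a b : F4, a + b = 0 → a = b := by decide
    rw [e3 _ _ hd]
    rw [Prod.mk.injEq]
    exact ⟨Subtype.ext ((vadd_eq_zero hF).1 h2.symm), rfl⟩
  · rintro ⟨w, c, d, e, rfl⟩
    exact ⟨(⟨c • r1 + d • r2, c, d, rfl⟩, e), rfl⟩

theorem H_sp2 {r1 r2 x : W} (c d : F4) : H x (c • r1 + d • r2) = c ^ 2 * H x r1 + d ^ 2 * H x r2 := by
  rw [H_add_right hF, H_smul_right hF, H_smul_right hF]

theorem mem_pp_sp2 {r1 r2 w : W} : w ∈ pp (sp2 r1 r2) ↔ H w r1 = 0 ∧ H w r2 = 0 := by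
  constructor
  · intro h
    constructor
    · apply zero_of_scalars' hF
      intro c
      have := h (c • r1) ⟨c, 0, by rw [zero_smul, add_zero]⟩
      rwa [H_smul_right hF] at this
    · apply zero_of_scalars' hF
      intro c
      have := h (c • r2) ⟨0, c, by rw [zero_smul, zero_add]⟩
      rwa [H_smul_right hF] at this
  · rintro ⟨h1, h2⟩ u ⟨c, d, rfl⟩
    left
    rw [H_sp2, h1, h2, mul_zero, mul_zero, add_zero]

theorem mem_pp_sp3 {r1 r2 r3 w : W} :
    w ∈ pp (sp3 r1 r2 r3) ↔ H w r1 = 0 ∧ H w r2 = 0 ∧ H w r3 = 0 := by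
  constructor
  · intro h
    refine ⟨?_, ?_, ?_⟩
    · apply zero_of_scalars' hF
      intro c
      have := h (c • r1) ⟨c, 0, 0, by rw [zero_smul, zero_smul, add_zero, add_zero]⟩
      rwa [H_smul_right hF] at this
    · apply zero_of_scalars' hF
      intro c
      have := h (c • r2) ⟨0, c, 0, by rw [zero_smul, zero_smul, add_zero, zero_add]⟩
      rwa [H_smul_right hF] at this
    · apply zero_of_scalars' hF
      intro c
      have := h (c • r3) ⟨0, 0, c, by rw [zero_smul, zero_smul, add_zero, zero_add]⟩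
      rwa [H_smul_right hF] at this
  · rintro ⟨h1, h2, h3⟩ u ⟨c, d, e, rfl⟩
    left
    rw [H_add_right hF, H_sp2, H_smul_right hF, h1, h2, h3, mul_zero, mul_zero, mul_zero, add_zero,
      add_zero]

/-- `|⟨r1, r2⟩^⊥| = 256` -/
theorem card_pp_sp2 {r1 r2 : W} (h0 : r1 ≠ 0) (h : ∀ c : F4, r2 ≠ c • r1) :
    Nat.card (pp (sp2 r1 r2)) = 256 := by
  have h1 := card_pp (sp2 r1 r2)
  rw [card_sp2 h0 h] at h1
  omega

theorem card_pp_sp3 {r1 r2 r3 : W} (h0 : r1 ≠ 0) (h : ∀ c : F4, r2 ≠ c • r1) (h3 : r3 ∉ sp2 r1 r2) :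
    Nat.card (pp (sp3 r1 r2 r3)) = 64 := by
  have h1 := card_pp (sp3 r1 r2 r3)
  rw [card_sp3 h0 h h3] at h1
  omega

/-- order of a sum -/
theorem card_sup (U Y : AddSubgroup W) :
    Nat.card U * Nat.card Y ≤ Nat.card ↥(U ⊔ Y) * Nat.card ↥(U ⊓ Y) := by
  let f : U × Y →+ W := U.subtype.coprod Y.subtype
  have h1 : Nat.card f.range * Nat.card f.ker = Nat.card (U × Y) := by
    rw [← AddSubgroup.card_mul_index f.ker, AddSubgroup.index_ker, mul_comm]
  rw [Nat.card_prod] at h1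
  rw [← h1]
  apply Nat.mul_le_mul
  · apply Nat.card_le_card_of_injective (fun x : f.range => (⟨x, by
      obtain ⟨p, hp⟩ := x.2
      rw [← hp]
      exact AddSubgroup.add_mem _ (AddSubgroup.mem_sup_left p.1.2) (AddSubgroup.mem_sup_right p.2.2)⟩ :
        ↥(U ⊔ Y)))
    intro x y hxy
    exact Subtype.ext (congrArg (fun t : ↥(U ⊔ Y) => (t : W)) hxy)
  · have key : ∀ x : f.ker, (x.1.1 : W) = x.1.2 := by
      intro x
      have h2 : (x.1.1 : W) + x.1.2 = 0 := x.2
      exact (vadd_eq_zero hF).1 h2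
    apply Nat.card_le_card_of_injective (fun x : f.ker => (⟨x.1.1, AddSubgroup.mem_inf.2 ⟨x.1.1.2, by
      rw [key x]; exact x.1.2.2⟩⟩ : ↥(U ⊓ Y)))
    intro x y hxy
    have h3 : (x.1.1 : W) = y.1.1 := congrArg (fun t : ↥(U ⊓ Y) => (t : W)) hxy
    have h4 : (x.1.2 : W) = y.1.2 := by rw [← key x, ← key y, h3]
    exact Subtype.ext (Prod.ext (Subtype.ext h3) (Subtype.ext h4))

end Cfsg.Agent.H826.Perp
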